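import Mathlib

/-!
# Pure group theory for the asymmetry lemma (Bender–Glauberman 13.8), helper54

* `fpf_surj`: if `b` normalizes the finite subgroup `Q` and fixes no non-identity element of it,
  every element of `Q` is of the form `a⁻¹ * (b * a * b⁻¹)`.
* `comm_mem_centralizer_of_isCyclic`: commutators of elements normalizing a cyclic subgroup
  centralize it.
* consequences: `le_commutator_of_fpf`, `le_centralizer_of_fpf_cyclic`.
-/

set_option autoImplicit false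

namespace Cfsg.Agent.Lib.Helper54.BG

open scoped commutatorElement

variable {G : Type*} [Group G]

/-- A fixed-point-free element acting on a finite subgroup: every element is a "commutator". -/
theorem fpf_surj [Finite G] {Q : Subgroup G} {b : G}
    (hb : b ∈ Subgroup.normalizer (Q : Set G))
    (hfix : ∀ a ∈ Q, b * a = a * b → a = 1) :
    ∀ y ∈ Q, ∃ a ∈ Q, y = a⁻¹ * (b * a * b⁻¹) := by
  classical
  let f : Q → Q := fun a => ⟨(a : G)⁻¹ * (b * a * b⁻¹),
    Q.mul_mem (Q.inv_mem a.2) ((Subgroup.mem_normalizer_iff.mp hb a).mp a.2)⟩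
  have hinj : Function.Injective f := by
    intro a a' h
    have h1 : (a : G)⁻¹ * (b * a * b⁻¹) = (a' : G)⁻¹ * (b * a' * b⁻¹) := congrArg Subtype.val h
    have h4 : (a' : G) * (a : G)⁻¹ = b * ((a' : G) * (a : G)⁻¹) * b⁻¹ := by
      calc (a' : G) * (a : G)⁻¹
          = (a' : G) * ((a : G)⁻¹ * (b * a * b⁻¹)) * (b * a * b⁻¹)⁻¹ := by group
        _ = (a' : G) * ((a' : G)⁻¹ * (b * a' * b⁻¹)) * (b * a * b⁻¹)⁻¹ := by rw [h1]
        _ = b * ((a' : G) * (a : G)⁻¹) * b⁻¹ := by group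
    have h2 : b * ((a' : G) * (a : G)⁻¹) = ((a' : G) * (a : G)⁻¹) * b := by
      calc b * ((a' : G) * (a : G)⁻¹) = b * ((a' : G) * (a : G)⁻¹) * b⁻¹ * b := by group
        _ = ((a' : G) * (a : G)⁻¹) * b := by rw [← h4]
    have h3 := hfix _ (Q.mul_mem a'.2 (Q.inv_mem a.2)) h2
    apply Subtype.ext
    calc (a : G) = ((a' : G) * (a : G)⁻¹)⁻¹ * a' := by group
      _ = a' := by rw [h3, inv_one, one_mul]
  have hsurj : Function.Surjective f := Finite.surjective_of_injective hinj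
  intro y hy
  obtain ⟨a, ha⟩ := hsurj ⟨y, hy⟩
  exact ⟨a, a.2, (congrArg Subtype.val ha).symm⟩

/-- Elements normalizing a cyclic subgroup act on it by power maps. -/
theorem exists_zpow_of_normalizer_isCyclic {J : Subgroup G} (hJ : IsCyclic J) {w : G}
    (hw : w ∈ Subgroup.normalizer (J : Set G)) :
    ∃ k : ℤ, ∀ x ∈ J, w * x * w⁻¹ = x ^ k := by
  obtain ⟨g, hg⟩ := hJ.exists_generator
  have h1 : w * (g : G) * w⁻¹ ∈ J := (Subgroup.mem_normalizer_iff.mp hw g).mp g.2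
  obtain ⟨k, hk⟩ := Subgroup.mem_zpowers_iff.mp (hg ⟨_, h1⟩)
  have hk' : (g : G) ^ k = w * g * w⁻¹ := by
    have := congrArg (Subtype.val : ↥J → G) hk
    simpa using this
  refine ⟨k, fun x hx => ?_⟩
  obtain ⟨i, hi⟩ := Subgroup.mem_zpowers_iff.mp (hg ⟨x, hx⟩)
  have hi' : (g : G) ^ i = x := by
    have := congrArg (Subtype.val : ↥J → G) hi
    simpa using this
  rw [← hi', ← conj_zpow, ← hk', ← zpow_mul, ← zpow_mul, mul_comm]

/-- Commutators of elements normalizing a cyclic subgroup centralize it. -/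
theorem comm_mem_centralizer_of_isCyclic {J : Subgroup G} (hJ : IsCyclic J) {u v : G}
    (hu : u ∈ Subgroup.normalizer (J : Set G)) (hv : v ∈ Subgroup.normalizer (J : Set G)) :
    u * v * u⁻¹ * v⁻¹ ∈ Subgroup.centralizer (J : Set G) := by
  obtain ⟨i, hi⟩ := exists_zpow_of_normalizer_isCyclic hJ (Subgroup.inv_mem _ hu)
  obtain ⟨j, hj⟩ := exists_zpow_of_normalizer_isCyclic hJ (Subgroup.inv_mem _ hv)
  rw [Subgroup.mem_centralizer_iff]
  intro x hx
  -- `(u⁻¹ v⁻¹) x (u⁻¹ v⁻¹)⁻¹ = (v⁻¹ u⁻¹) x (v⁻¹ u⁻¹)⁻¹`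
  have e1 : u⁻¹ * (v⁻¹ * x * v⁻¹⁻¹) * u⁻¹⁻¹ = x ^ (j * i) := by
    rw [hj x hx, hi _ (J.zpow_mem hx j), zpow_mul]
  have e2 : v⁻¹ * (u⁻¹ * x * u⁻¹⁻¹) * v⁻¹⁻¹ = x ^ (j * i) := by
    rw [hi x hx, hj _ (J.zpow_mem hx i), ← zpow_mul, mul_comm]
  have e3 : u⁻¹ * (v⁻¹ * x * v⁻¹⁻¹) * u⁻¹⁻¹ = v⁻¹ * (u⁻¹ * x * u⁻¹⁻¹) * v⁻¹⁻¹ := e1.trans e2.symm
  calc x * (u * v * u⁻¹ * v⁻¹)
      = u * v * (v⁻¹ * (u⁻¹ * x * u⁻¹⁻¹) * v⁻¹⁻¹) * u⁻¹ * v⁻¹ := by group
    _ = u * v * (u⁻¹ * (v⁻¹ * x * v⁻¹⁻¹) * u⁻¹⁻¹) * u⁻¹ * v⁻¹ := by rw [e3]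
    _ = u * v * u⁻¹ * v⁻¹ * x := by group

/-- If `b ∈ M` acts fixed-point-freely on `Q ≤ M`, then `Q ≤ M'`. -/
theorem le_commutator_of_fpf [Finite G] {Q M : Subgroup G} {b : G} (hQM : Q ≤ M) (hbM : b ∈ M)
    (hb : b ∈ Subgroup.normalizer (Q : Set G))
    (hfix : ∀ a ∈ Q, b * a = a * b → a = 1) : Q ≤ ⁅M, M⁆ := by
  intro y hy
  obtain ⟨a, ha, rfl⟩ := fpf_surj hb hfix y hy
  have h1 : ⁅a⁻¹, b⁆ ∈ ⁅M, M⁆ :=
    Subgroup.commutator_mem_commutator (M.inv_mem (hQM ha)) hbM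
  have e : a⁻¹ * (b * a * b⁻¹) = ⁅a⁻¹, b⁆ := by
    rw [commutatorElement_def]; group
  rw [e]; exact h1

/-- If `b` acts fixed-point-freely on `Q` and both normalize the cyclic subgroup `J`, then `Q`
centralizes `J`. -/
theorem le_centralizer_of_fpf_cyclic [Finite G] {Q J : Subgroup G} {b : G} (hJ : IsCyclic J)
    (hQJ : Q ≤ Subgroup.normalizer (J : Set G)) (hbJ : b ∈ Subgroup.normalizer (J : Set G))
    (hb : b ∈ Subgroup.normalizer (Q : Set G))
    (hfix : ∀ a ∈ Q, b * a = a * b → a = 1) : Q ≤ Subgroup.centralizer (J : Set G) := by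
  intro y hy
  obtain ⟨a, ha, rfl⟩ := fpf_surj hb hfix y hy
  have h1 := comm_mem_centralizer_of_isCyclic hJ (Subgroup.inv_mem _ (hQJ ha)) hbJ
  have e : a⁻¹ * (b * a * b⁻¹) = a⁻¹ * b * a⁻¹⁻¹ * b⁻¹ := by group
  rw [e]; exact h1

/-- In a subgroup of prime order every element is a power of any non-identity element. -/
theorem mem_zpowers_of_card_prime [Finite G] {P : Subgroup G} {p : ℕ} (hp : p.Prime)
    (hP : Nat.card P = p) {b : G} (hb : b ∈ P) (hb1 : b ≠ 1) :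
    ∀ x ∈ P, x ∈ Subgroup.zpowers b := by
  have : Fact p.Prime := ⟨hp⟩
  intro x hx
  have hb' : (⟨b, hb⟩ : P) ≠ 1 := fun h => hb1 (congrArg Subtype.val h)
  have h1 : (⟨x, hx⟩ : P) ∈ Subgroup.zpowers (⟨b, hb⟩ : P) := mem_zpowers_of_prime_card hP hb'
  obtain ⟨k, hk⟩ := Subgroup.mem_zpowers_iff.mp h1
  rw [Subgroup.mem_zpowers_iff]
  refine ⟨k, ?_⟩
  have := congrArg (Subtype.val : ↥P → G) hk
  simpa using this

/-- An element commuting with a non-identity element of a subgroup of prime order centralizes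
the subgroup. -/
theorem mem_centralizer_of_card_prime [Finite G] {P : Subgroup G} {p : ℕ} (hp : p.Prime)
    (hP : Nat.card P = p) {b : G} (hb : b ∈ P) (hb1 : b ≠ 1) {a : G} (hab : b * a = a * b) :
    a ∈ Subgroup.centralizer (P : Set G) := by
  rw [Subgroup.mem_centralizer_iff]
  intro x hx
  obtain ⟨k, rfl⟩ := Subgroup.mem_zpowers_iff.mp (mem_zpowers_of_card_prime hp hP hb hb1 x hx)
  have hc : Commute (b : G) a := hab
  exact (hc.zpow_left k).eq

/-- The centralizer of a subgroup of prime order is the centralizer of any of its non-identity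
elements. -/
theorem centralizer_singleton_eq_of_card_prime [Finite G] {P : Subgroup G} {p : ℕ}
    (hp : p.Prime) (hP : Nat.card P = p) {b : G} (hb : b ∈ P) (hb1 : b ≠ 1) :
    Subgroup.centralizer ({b} : Set G) = Subgroup.centralizer (P : Set G) := by
  apply le_antisymm
  · intro a ha
    have h1 : b * a = a * b := Subgroup.mem_centralizer_iff.mp ha b (Set.mem_singleton b)
    exact mem_centralizer_of_card_prime hp hP hb hb1 h1
  · exact Subgroup.centralizer_le (Set.singleton_subset_iff.mpr hb)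

/-- A subgroup of prime order has a non-identity element. -/
theorem exists_gen_of_card_prime [Finite G] {P : Subgroup G} {p : ℕ} (hp : p.Prime)
    (hP : Nat.card P = p) : ∃ b ∈ P, b ≠ 1 := by
  have hnt : Nontrivial P := by
    rw [← Finite.one_lt_card_iff_nontrivial, hP]; exact hp.one_lt
  obtain ⟨b, hb⟩ := exists_ne (1 : P)
  exact ⟨b, b.2, fun h => hb (Subtype.ext h)⟩

/-- A subgroup of prime order is commutative of exponent `p`. -/
theorem comm_exp_of_card_prime [Finite G] {P : Subgroup G} {p : ℕ} (hp : p.Prime)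
    (hP : Nat.card P = p) :
    (∀ a ∈ P, ∀ c ∈ P, a * c = c * a) ∧ ∀ a ∈ P, a ^ p = 1 := by
  obtain ⟨b, hb, hb1⟩ := exists_gen_of_card_prime hp hP
  constructor
  · intro a ha c hc
    obtain ⟨k, rfl⟩ := Subgroup.mem_zpowers_iff.mp (mem_zpowers_of_card_prime hp hP hb hb1 a ha)
    obtain ⟨l, rfl⟩ := Subgroup.mem_zpowers_iff.mp (mem_zpowers_of_card_prime hp hP hb hb1 c hc)
    rw [← zpow_add, ← zpow_add, add_comm]
  · intro a ha
    have h1 : (⟨a, ha⟩ : P) ^ Nat.card P = 1 := pow_card_eq_one'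
    rw [hP] at h1
    exact congrArg Subtype.val h1

end Cfsg.Agent.Lib.Helper54.BG
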